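import Mathlib
import Cfsg.Prelude.Def_SolvableStructure
import Cfsg.Agent.Lib.Helper1.Tools
import Cfsg.Agent.Lib.Helper1.MinimalNormal
import Cfsg.Agent.Lib.Helper1.Frattini
import Cfsg.Agent.Lib.Helper1.CoprimeSylow

set_option autoImplicit false
open Pointwise

namespace Cfsg.Agent.Lib.Helper1.Carter

open Cfsg Cfsg.Agent.Lib.Helper1

universe u
variable {G : Type u} [Group G]

theorem isCarter_subgroupOf {C L : Subgroup G} (hC : IsCarterSubgroup C) (hCL : C ≤ L) :
    IsCarterSubgroup (C.subgroupOf L) := by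
  refine ⟨(Group.isNilpotent_congr (Subgroup.subgroupOfEquivOfLe hCL)).2 hC.1, ?_⟩
  apply le_antisymm _ Subgroup.le_normalizer
  intro x hx
  rw [Subgroup.mem_subgroupOf, ← hC.2, Subgroup.mem_normalizer_iff]
  rw [Subgroup.mem_normalizer_iff] at hx
  intro h
  constructor
  · intro hh
    have := (hx ⟨h, hCL hh⟩).1 (by rw [Subgroup.mem_subgroupOf]; exact hh)
    rw [Subgroup.mem_subgroupOf] at this
    simpa using this
  · intro hh
    have hL : h ∈ L := by
      have := L.mul_mem (L.mul_mem (L.inv_mem x.2) (hCL hh)) x.2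
      simpa [mul_assoc] using this
    have := (hx ⟨h, hL⟩).2 (by rw [Subgroup.mem_subgroupOf]; simpa using hh)
    rw [Subgroup.mem_subgroupOf] at this
    simpa using this

theorem isCarter_map_subtype {L : Subgroup G} {C : Subgroup L} (hC : IsCarterSubgroup C) :
    Group.IsNilpotent (C.map L.subtype) ∧
      ∀ x ∈ L, x ∈ Subgroup.normalizer ((C.map L.subtype : Subgroup G) : Set G) →
        x ∈ C.map L.subtype := by
  refine ⟨(Group.isNilpotent_congr (C.equivMapOfInjective L.subtype L.subtype_injective)).1 hC.1, ?_⟩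
  intro x hxL hx
  have : (⟨x, hxL⟩ : L) ∈ Subgroup.normalizer (C : Set L) := by
    rw [mem_normalizer_iff_conj_smul] at hx ⊢
    apply Subgroup.map_injective L.subtype_injective
    rw [map_conj_smul]
    exact hx
  rw [hC.2] at this
  exact ⟨_, this, rfl⟩

theorem isCarter_conj {C : Subgroup G} (hC : IsCarterSubgroup C) (g : G) :
    IsCarterSubgroup (MulAut.conj g • C) := by
  refine ⟨(Group.isNilpotent_congr (Subgroup.equivSMul (MulAut.conj g) C)).1 hC.1, ?_⟩
  apply le_antisymm _ Subgroup.le_normalizer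
  intro x hx
  rw [mem_normalizer_iff_conj_smul, ← conj_mul_smul] at hx
  rw [mem_conj_smul_iff, ← hC.2, mem_normalizer_iff_conj_smul, conj_mul_smul, conj_mul_smul,
    ← conj_mul_smul x g, hx, ← conj_mul_smul]
  simp

theorem eq_top_of_normalizer_eq [Group.IsNilpotent G] {H : Subgroup G}
    (h : Subgroup.normalizer (H : Set G) = H) : H = ⊤ := by
  by_contra hne
  have := Group.normalizerCondition_of_isNilpotent H (lt_top_iff_ne_top.2 hne)
  rw [h] at this
  exact lt_irrefl _ this

/-- image of a self-normalising subgroup containing the kernel -/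
theorem normalizer_map_eq {Q : Type*} [Group Q] {f : G →* Q} (hf : Function.Surjective f)
    {M : Subgroup G} (hker : f.ker ≤ M) (hM : Subgroup.normalizer (M : Set G) = M) :
    Subgroup.normalizer ((M.map f : Subgroup Q) : Set Q) = M.map f := by
  apply le_antisymm _ Subgroup.le_normalizer
  intro y hy
  obtain ⟨x, rfl⟩ := hf y
  refine ⟨x, ?_, rfl⟩
  rw [SetLike.mem_coe, ← hM, mem_normalizer_iff_conj_smul]
  rw [mem_normalizer_iff_conj_smul, ← map_conj_smul] at hy
  have h1 := congrArg (Subgroup.comap f) hy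
  rw [Subgroup.comap_map_eq_self hker, Subgroup.comap_map_eq_self] at h1
  · exact h1
  · intro k hk
    rw [mem_conj_smul_iff]
    apply hker
    rw [MonoidHom.mem_ker] at hk ⊢
    simp [hk]

theorem eq_top_of_normalizer_eq_of_nilpotent_quotient {Q : Type*} [Group Q] [Group.IsNilpotent Q]
    {f : G →* Q} (hf : Function.Surjective f)
    {M : Subgroup G} (hker : f.ker ≤ M) (hM : Subgroup.normalizer (M : Set G) = M) : M = ⊤ := by
  have h1 := eq_top_of_normalizer_eq (normalizer_map_eq hf hker hM)
  rw [← Subgroup.comap_map_eq_self hker, h1, Subgroup.comap_top]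

theorem conj_smul_sup_normal (g : G) (C N : Subgroup G) [hN : N.Normal] :
    MulAut.conj g • (C ⊔ N) = MulAut.conj g • C ⊔ N := by
  rw [Subgroup.smul_sup, Subgroup.Normal.conj_smul_eq_self g N]

/-- A nilpotent subgroup has normal Sylow subgroups. -/
theorem exists_normal_sylow [Finite G] {C : Subgroup G} (hC : Group.IsNilpotent C) (q : ℕ)
    [Fact q.Prime] :
    ∃ T : Subgroup G, T ≤ C ∧ IsPGroup q T ∧ ¬ q ∣ T.relIndex C ∧
      C ≤ Subgroup.normalizer (T : Set G) ∧ (q ∣ Nat.card C → T ≠ ⊥) := by
  obtain ⟨h1, h2, h3⟩ := sylow_map_subtype_props (default : Sylow q C)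
  set T₀ : Sylow q C := default
  refine ⟨_, h1, h2, h3, ?_, ?_⟩
  · intro c hc
    have hn : (T₀ : Subgroup C).Normal := inferInstance
    rw [mem_normalizer_iff_conj_smul]
    have := map_conj_smul C.subtype ⟨c, hc⟩ (T₀ : Subgroup C)
    rw [Subgroup.Normal.conj_smul_eq_self] at this
    exact this.symm
  · intro hq hbot
    rw [hbot, Subgroup.relIndex_bot_left] at h3
    exact h3 hq

theorem carter_conj_aux (n : ℕ) : ∀ (G : Type u) [Group G] [Finite G] [Group.IsSolvable G],
    Nat.card G = n → ∀ C D : Subgroup G, IsCarterSubgroup C → IsCarterSubgroup D →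
      ∃ g : G, MulAut.conj g • C = D := by
  induction n using Nat.strong_induction_on with
  | _ n ih =>
  intro G _ _ _ hn
  subst hn
  have ihsub : ∀ L : Subgroup G, L ≠ ⊤ → ∀ C D : Subgroup G, IsCarterSubgroup C →
      IsCarterSubgroup D → C ≤ L → D ≤ L → ∃ g ∈ L, MulAut.conj g • C = D := by
    intro L hL C D hC hD hCL hDL
    obtain ⟨l, hl⟩ := ih (Nat.card L) (card_subgroup_lt_of_ne_top hL) L rfl _ _
      (isCarter_subgroupOf hC hCL) (isCarter_subgroupOf hD hDL)
    exact ⟨l, l.2, conj_of_subgroupOf hCL hDL l hl⟩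
  have hover : ∀ C M : Subgroup G, IsCarterSubgroup C → C ≤ M →
      Subgroup.normalizer (M : Set G) = M := by
    intro C M hC hCM
    by_cases hM : M = ⊤
    · rw [hM]; exact Subgroup.normalizer_eq_top ⊤
    apply le_antisymm _ Subgroup.le_normalizer
    intro x hx
    rw [mem_normalizer_iff_conj_smul] at hx
    have h1 : MulAut.conj x • C ≤ M := by
      rw [← hx]; exact Subgroup.pointwise_smul_le_pointwise_smul_iff.2 hCM
    obtain ⟨m, hm, hmx⟩ := ihsub M hM C _ hC (isCarter_conj hC x) hCM h1
    have h2 : m⁻¹ * x ∈ Subgroup.normalizer (C : Set G) := by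
      rw [mem_normalizer_iff_conj_smul, conj_mul_smul, ← hmx, ← conj_mul_smul]; simp
    rw [hC.2] at h2
    have := M.mul_mem hm (hCM h2)
    simpa using this
  have ihquot : ∀ N : Subgroup G, N.Normal → N ≠ ⊥ → ∀ C D : Subgroup G, IsCarterSubgroup C →
      IsCarterSubgroup D → ∃ g : G, MulAut.conj g • (C ⊔ N) = D ⊔ N := by
    intro N hN hne C D hC hD
    have key : ∀ C : Subgroup G, IsCarterSubgroup C →
        IsCarterSubgroup (C.map (QuotientGroup.mk' N)) := by
      intro C hC
      constructor
      · have := hC.1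
        exact Group.nilpotent_of_surjective ((QuotientGroup.mk' N).subgroupMap C)
          ((QuotientGroup.mk' N).subgroupMap_surjective C)
      · have h1 := normalizer_map_eq (QuotientGroup.mk'_surjective N) (M := C ⊔ N)
          (by rw [QuotientGroup.ker_mk']; exact le_sup_right) (hover C _ hC le_sup_left)
        have h2 : (C ⊔ N).map (QuotientGroup.mk' N) = C.map (QuotientGroup.mk' N) := by
          rw [Subgroup.map_sup, (Subgroup.map_eq_bot_iff N).2 (by rw [QuotientGroup.ker_mk']),
            sup_bot_eq]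
        rwa [h2] at h1
    obtain ⟨gb, hgb⟩ := ih (Nat.card (G ⧸ N)) (card_quotient_lt_of_ne_bot hne) (G ⧸ N) rfl _ _
      (key C hC) (key D hD)
    obtain ⟨g, rfl⟩ := QuotientGroup.mk'_surjective N gb
    refine ⟨g, ?_⟩
    rw [← map_conj_smul] at hgb
    have h1 := congrArg (Subgroup.comap (QuotientGroup.mk' N)) hgb
    rw [Subgroup.comap_map_eq, Subgroup.comap_map_eq, QuotientGroup.ker_mk'] at h1
    rw [conj_smul_sup_normal, h1]
  intro C D hC hD
  by_cases hnt : Nontrivial G
  swap
  · rw [not_nontrivial_iff_subsingleton] at hnt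
    exact ⟨1, Subsingleton.elim _ _⟩
  obtain ⟨p, N, hp, hN, hne, hpN, -, -⟩ := exists_normal_pSubgroup_of_solvable (G := G)
  have : Fact p.Prime := ⟨hp⟩
  obtain ⟨g, hg⟩ := ihquot N hN hne C D hC hD
  rw [conj_smul_sup_normal] at hg
  suffices h : ∃ g' : G, MulAut.conj g' • (MulAut.conj g • C) = D by
    obtain ⟨g', hg'⟩ := h
    exact ⟨g' * g, by rw [conj_mul_smul, hg']⟩
  have hC' := isCarter_conj hC g
  generalize MulAut.conj g • C = C' at hg hC'
  by_cases hK : D ⊔ N = ⊤
  swap
  · obtain ⟨g', -, h⟩ := ihsub _ hK C' D hC' hD (hg ▸ le_sup_left) le_sup_left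
    exact ⟨g', h⟩
  rw [hK] at hg
  by_cases hCp : IsPGroup p C'
  · have h1 : IsPGroup p (C' ⊔ N : Subgroup G) := hCp.to_sup_of_normal_right hpN
    rw [hg] at h1
    have h2 : IsPGroup p G := h1.of_equiv Subgroup.topEquiv
    have := h2.isNilpotent
    rw [eq_top_of_normalizer_eq hC'.2, eq_top_of_normalizer_eq hD.2]
    exact ⟨1, by simp⟩
  -- a prime `q ≠ p` dividing the order of `C'`
  obtain ⟨q, hq, hqC, hqp⟩ : ∃ q : ℕ, q.Prime ∧ q ∣ Nat.card C' ∧ q ≠ p := by
    by_contra hcon
    push Not at hcon
    apply hCp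
    have := Nat.eq_prime_pow_of_unique_prime_dvd (n := Nat.card C') (p := p) Nat.card_pos.ne'
      (fun {d} hd hdvd => hcon d hd hdvd)
    exact IsPGroup.of_card this
  have : Fact q.Prime := ⟨hq⟩
  have hidx : ∀ E : Subgroup G, E ⊔ N = ⊤ → ¬ q ∣ E.index := by
    intro E hE hdvd
    have h1 := card_sup_dvd (H := E) (K := N) (by rw [Subgroup.normalizer_eq_top N]; exact le_top)
    rw [hE, Subgroup.card_top, ← Subgroup.card_mul_index E] at h1
    have h2 : E.index ∣ Nat.card N := Nat.dvd_of_mul_dvd_mul_left Nat.card_pos h1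
    obtain ⟨k, hk⟩ := IsPGroup.iff_card.1 hpN
    rw [hk] at h2
    exact hqp ((Nat.prime_dvd_prime_iff_eq hq hp).1 (hq.dvd_of_dvd_pow (hdvd.trans h2)))
  obtain ⟨T, hTC, hTq, hTi, hTn, hTne⟩ := exists_normal_sylow hC'.1 q
  obtain ⟨S, hSD, hSq, hSi, hSn, -⟩ := exists_normal_sylow hD.1 q
  have hTi' : ¬ q ∣ T.relIndex ⊤ := by
    rw [Subgroup.relIndex_top_right, ← Subgroup.relIndex_mul_index hTC]
    exact fun h => (hq.dvd_mul.1 h).elim hTi (hidx _ hg)
  have hSi' : ¬ q ∣ S.relIndex ⊤ := by
    rw [Subgroup.relIndex_top_right, ← Subgroup.relIndex_mul_index hSD]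
    exact fun h => (hq.dvd_mul.1 h).elim hSi (hidx _ hK)
  obtain ⟨m, -, hm⟩ := exists_conj_of_sylow_rel (M := ⊤) le_top le_top hSq hTq hSi' hTi'
  suffices h : ∃ g' : G, MulAut.conj g' • (MulAut.conj m • C') = D by
    obtain ⟨g', hg'⟩ := h
    exact ⟨g' * m, by rw [conj_mul_smul, hg']⟩
  have hC'' := isCarter_conj hC' m
  have hSC : S ≤ MulAut.conj m • C' := by
    rw [← hm]; exact Subgroup.pointwise_smul_le_pointwise_smul_iff.2 hTC
  have hSn' : MulAut.conj m • C' ≤ Subgroup.normalizer (S : Set G) := by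
    rw [← hm, le_normalizer_conj_smul_iff, ← conj_mul_smul]
    simpa using hTn
  have hSne : S ≠ ⊥ := by
    intro h
    rw [h] at hm
    apply hTne hqC
    have := congrArg (fun X => MulAut.conj m⁻¹ • X) hm
    simpa [← conj_mul_smul] using this
  generalize MulAut.conj m • C' = C'' at hC'' hSC hSn'
  by_cases hSG : Subgroup.normalizer (S : Set G) = ⊤
  · have hSnorm : S.Normal := Subgroup.normalizer_eq_top_iff.1 hSG
    obtain ⟨g', hg'⟩ := ihquot S hSnorm hSne C'' D hC'' hD
    rw [sup_of_le_left hSC, sup_of_le_left hSD] at hg'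
    exact ⟨g', hg'⟩
  · obtain ⟨g', -, h⟩ := ihsub _ hSG C'' D hC'' hD hSn' hSn
    exact ⟨g', h⟩

/-- Carter subgroups of a finite solvable group are conjugate. -/
theorem carter_conj [Finite G] [Group.IsSolvable G] {C D : Subgroup G} (hC : IsCarterSubgroup C)
    (hD : IsCarterSubgroup D) : ∃ g : G, MulAut.conj g • C = D :=
  carter_conj_aux _ G rfl C D hC hD

/-- Every overgroup of a Carter subgroup is self-normalising. -/
theorem carter_overgroup [Finite G] [Group.IsSolvable G] {C M : Subgroup G}
    (hC : IsCarterSubgroup C) (hCM : C ≤ M) : Subgroup.normalizer (M : Set G) = M := by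
  apply le_antisymm _ Subgroup.le_normalizer
  intro x hx
  rw [mem_normalizer_iff_conj_smul] at hx
  have h1 : MulAut.conj x • C ≤ M := by
    rw [← hx]; exact Subgroup.pointwise_smul_le_pointwise_smul_iff.2 hCM
  obtain ⟨l, hl⟩ := carter_conj (isCarter_subgroupOf hC hCM)
    (isCarter_subgroupOf (isCarter_conj hC x) h1)
  have hmx := conj_of_subgroupOf hCM h1 l hl
  have h2 : (l : G)⁻¹ * x ∈ Subgroup.normalizer (C : Set G) := by
    rw [mem_normalizer_iff_conj_smul, conj_mul_smul, ← hmx, ← conj_mul_smul]; simp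
  rw [hC.2] at h2
  have := M.mul_mem l.2 (hCM h2)
  simpa using this

/-- The image of a Carter subgroup under a surjective homomorphism is a Carter subgroup. -/
theorem isCarter_map [Finite G] [Group.IsSolvable G] {Q : Type*} [Group Q] {f : G →* Q}
    (hf : Function.Surjective f) {C : Subgroup G} (hC : IsCarterSubgroup C) :
    IsCarterSubgroup (C.map f) := by
  constructor
  · have := hC.1
    exact Group.nilpotent_of_surjective (f.subgroupMap C) (f.subgroupMap_surjective C)
  · have h1 := normalizer_map_eq hf (M := C ⊔ f.ker) le_sup_right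
      (carter_overgroup hC le_sup_left)
    have h2 : (C ⊔ f.ker).map f = C.map f := by
      rw [Subgroup.map_sup, (Subgroup.map_eq_bot_iff _).2 le_rfl, sup_bot_eq]
    rwa [h2] at h1

theorem carter_exists_aux (n : ℕ) : ∀ (G : Type u) [Group G] [Finite G] [Group.IsSolvable G],
    Nat.card G = n → ∃ C : Subgroup G, IsCarterSubgroup C := by
  induction n using Nat.strong_induction_on with
  | _ n ih =>
  intro G _ _ _ hn
  subst hn
  by_cases hnil : Group.IsNilpotent G
  · exact ⟨⊤, Group.isNilpotent_top.2 hnil, Subgroup.normalizer_eq_top ⊤⟩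
  have hnt : Nontrivial G := by
    by_contra h
    rw [not_nontrivial_iff_subsingleton] at h
    exact hnil inferInstance
  obtain ⟨p, N, hp, hN, hne, hpN, hNab, hmin⟩ := exists_normal_pSubgroup_of_solvable (G := G)
  obtain ⟨Kb, hKb⟩ := ih (Nat.card (G ⧸ N)) (card_quotient_lt_of_ne_bot hne) (G ⧸ N) rfl
  by_cases hK : Kb.comap (QuotientGroup.mk' N) = ⊤
  · -- `G ⧸ N` is nilpotent
    have hKb' : Kb = ⊤ := by
      rw [← Subgroup.map_comap_eq_self_of_surjective (QuotientGroup.mk'_surjective N) Kb, hK,
        Subgroup.map_top_of_surjective _ (QuotientGroup.mk'_surjective N)]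
    have hQ : Group.IsNilpotent (G ⧸ N) := by
      rw [← Group.isNilpotent_top, ← hKb']; exact hKb.1
    have q := (Group.isNilpotent_of_finite_tfae (G := G)).out 0 2
    rw [q] at hnil
    push Not at hnil
    obtain ⟨M, hM, hMn⟩ := hnil
    have hNM : ¬ N ≤ M := by
      intro hNM
      apply hMn
      have h1 := isCoatom_map_of_surjective (QuotientGroup.mk'_surjective N) (M := M)
        (by rw [QuotientGroup.ker_mk']; exact hNM) hM
      have q' := (Group.isNilpotent_of_finite_tfae (G := G ⧸ N)).out 0 2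
      have h2 := (q'.1 hQ) _ h1
      have h3 : M = (M.map (QuotientGroup.mk' N)).comap (QuotientGroup.mk' N) := by
        rw [Subgroup.comap_map_eq_self (by rw [QuotientGroup.ker_mk']; exact hNM)]
      rw [h3]
      exact h2.comap _
    have hMN : M ⊔ N = ⊤ := hM.2 _ (lt_of_le_of_ne le_sup_left
      (fun h => hNM (by rw [h]; exact le_sup_right)))
    have hnorm : (M ⊓ N).Normal := by
      rw [← Subgroup.normalizer_eq_top_iff, eq_top_iff, ← hMN, sup_le_iff]
      constructor
      · intro m hm
        rw [mem_normalizer_iff_conj_smul, Subgroup.smul_inf,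
          Subgroup.Normal.conj_smul_eq_self m N, Subgroup.conj_smul_eq_self_of_mem hm]
      · intro x hx
        rw [Subgroup.mem_normalizer_iff]
        intro h
        constructor
        · rintro ⟨h1, h2⟩
          have : x * h * x⁻¹ = h := by
            have := congrArg Subtype.val (mul_comm' (⟨x, hx⟩ : N) ⟨h, h2⟩)
            simp only [Subgroup.coe_mul] at this
            rw [this]; simp
          rw [this]; exact ⟨h1, h2⟩
        · rintro ⟨h1, h2⟩
          have h2' : h ∈ N := by
            have := N.mul_mem (N.mul_mem (N.inv_mem hx) h2) hx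
            simpa [mul_assoc] using this
          have : x * h * x⁻¹ = h := by
            have := congrArg Subtype.val (mul_comm' (⟨x, hx⟩ : N) ⟨h, h2'⟩)
            simp only [Subgroup.coe_mul] at this
            rw [this]; simp
          rw [this] at h1; exact ⟨h1, h2'⟩
    have hbot : M ⊓ N = ⊥ := by
      rcases hmin _ hnorm inf_le_right with h | h
      · exact h
      · exact absurd (h ▸ inf_le_left) hNM
    refine ⟨M, ?_, ?_⟩
    · have hinj : Function.Injective ((QuotientGroup.mk' N).comp M.subtype) := by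
        rw [injective_iff_map_eq_one]
        intro a ha
        have h1 : (a : G) ∈ N := by
          rw [← QuotientGroup.eq_one_iff]; exact ha
        have h2 : (a : G) ∈ M ⊓ N := ⟨a.2, h1⟩
        rw [hbot, Subgroup.mem_bot] at h2
        exact Subtype.ext h2
      exact (Group.isNilpotent_congr (MonoidHom.ofInjective hinj)).2 inferInstance
    · rcases hM.le_iff.1 (Subgroup.le_normalizer (H := M)) with h | h
      · exact absurd (Subgroup.normalizer_eq_top_iff.1 h) hMn
      · exact h
  · set K := Kb.comap (QuotientGroup.mk' N) with hKdef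
    obtain ⟨C₀, hC₀⟩ := ih (Nat.card K) (card_subgroup_lt_of_ne_top hK) K rfl
    obtain ⟨hnilC, hnormC⟩ := isCarter_map_subtype hC₀
    have hNK : N ≤ K := by
      rw [hKdef]
      conv_lhs => rw [← QuotientGroup.ker_mk' N]
      exact MonoidHom.ker_le_comap _ _
    -- `C₀ ⊔ N = K`
    have htop : C₀ ⊔ N.subgroupOf K = ⊤ := by
      have := hKb.1
      apply eq_top_of_normalizer_eq_of_nilpotent_quotient
        (f := (QuotientGroup.mk' N).subgroupComap Kb)
        ((QuotientGroup.mk' N).subgroupComap_surjective_of_surjective Kb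
          (QuotientGroup.mk'_surjective N))
      · intro x hx
        apply Subgroup.mem_sup_right
        rw [Subgroup.mem_subgroupOf, ← QuotientGroup.eq_one_iff]
        rw [MonoidHom.mem_ker] at hx
        exact congrArg Subtype.val hx
      · exact carter_overgroup hC₀ le_sup_left
    have htop' : C₀.map K.subtype ⊔ N = K := by
      have := congrArg (Subgroup.map K.subtype) htop
      rw [Subgroup.map_sup, Subgroup.subgroupOf_map_subtype, inf_of_le_left hNK,
        ← MonoidHom.range_eq_map, Subgroup.range_subtype] at this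
      exact this
    refine ⟨C₀.map K.subtype, hnilC, ?_⟩
    apply le_antisymm _ Subgroup.le_normalizer
    intro x hx
    apply hnormC x _ hx
    have h1 : x ∈ Subgroup.normalizer (K : Set G) := by
      rw [mem_normalizer_iff_conj_smul] at hx ⊢
      rw [← htop', conj_smul_sup_normal, hx]
    have h2 : QuotientGroup.mk' N x ∈ Subgroup.normalizer (Kb : Set (G ⧸ N)) := by
      rw [mem_normalizer_iff_conj_smul] at h1 ⊢
      have := congrArg (Subgroup.map (QuotientGroup.mk' N)) h1
      rw [map_conj_smul, hKdef,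
        Subgroup.map_comap_eq_self_of_surjective (QuotientGroup.mk'_surjective N)] at this
      exact this
    rw [hKb.2] at h2
    exact h2

/-- A finite solvable group has a Carter subgroup. -/
theorem carter_exists (G : Type u) [Group G] [Finite G] [Group.IsSolvable G] :
    ∃ C : Subgroup G, IsCarterSubgroup C :=
  carter_exists_aux _ G rfl

end Cfsg.Agent.Lib.Helper1.Carter
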