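import Mathlib
import Cfsg.Agent.Lib.Helper99.SpxBase

set_option autoImplicit false
set_option linter.unusedSectionVars false
set_option linter.unusedVariables false

/-! Piece ALL of the S5664 farm. -/

namespace Cfsg.Agent.Lib.Helper99.Spx

open Module
open LinearMap (BilinForm)
open Cfsg.Agent.Lib.Helper83.Ext
open Cfsg.Agent.Lib.Helper94 (IsIsom st st_apply st_isIsom alt_swap exists_move)

variable {F K V : Type*} [Field F] [Field K] [Algebra F K] [AddCommGroup V] [Module F V] [Module K V]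
  [IsScalarTower F K V]
variable {BK : BilinForm K V} {ξ : K →ₗ[F] F} {G : Subgroup (V ≃ₗ[F] V)}

lemma br_algebraMap (ξ : K →ₗ[F] F) (e : F) :
    br ξ (algebraMap F K e * 1) = (e ^ 2) • br ξ 1 := by
  ext b
  simp only [br_apply, mul_one, one_mul, LinearMap.smul_apply]
  rw [← Algebra.smul_def, map_smul, smul_eq_mul, Algebra.algebraMap_eq_smul_one, smul_smul, smul_smul]
  congr 1
  ring

lemma exists_sq_sub_sq [Finite F] (x : F) : ∃ a b : F, x = a ^ 2 - b ^ 2 := by
  by_cases h2 : (2 : F) = 0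
  · have : CharP F 2 := by
      refine CharTwo.of_one_ne_zero_of_two_eq_zero one_ne_zero h2
    obtain ⟨a, ha⟩ := FiniteField.isSquare_of_char_two (ringChar.eq F 2) x
    exact ⟨a, 0, by rw [ha]; ring⟩
  · refine ⟨(x + 1) / 2, (x - 1) / 2, ?_⟩
    field_simp
    ring

theorem allSt_of_hasSt [Finite F] [FiniteDimensional K V] (hyp : Hyp BK ξ G) (h : HasSt BK ξ G) :
    AllSt BK ξ G := by
  obtain ⟨v₀, l₀, hv₀, hl₀, h₀⟩ := h
  have P0 : ∀ y : V, y ≠ 0 → 1 + TT BK y (l₀ • br ξ 1) ∈ MS G := fun y hy => T_trans hyp hv₀ hy h₀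
  have Psq : ∀ (l e : F), (∀ y : V, y ≠ 0 → 1 + TT BK y (l • br ξ 1) ∈ MS G) →
      ∀ y : V, y ≠ 0 → 1 + TT BK y ((e ^ 2 * l) • br ξ 1) ∈ MS G := by
    intro l e hl y hy
    by_cases he : e = 0
    · subst he
      have : ((0 : F) ^ 2 * l) • br ξ 1 = 0 := by simp
      rw [this]
      exact T_zero y
    · have hα : algebraMap F K e ≠ 0 := by
        simpa using he
      have h1 := hl (algebraMap F K e • y) (smul_ne_zero hα hy)
      rw [TT_smul_br, br_algebraMap, smul_smul, mul_comm] at h1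
      exact h1
  intro v l
  by_cases hv : v = 0
  · subst hv
    have : TT BK 0 (l • br ξ 1) = 0 := by
      ext x; simp
    rw [this, add_zero]
    exact MS_one
  · obtain ⟨a, b, hab⟩ := exists_sq_sub_sq (l / l₀)
    have hl : l = a ^ 2 * l₀ - b ^ 2 * l₀ := by
      rw [← sub_mul, ← hab, div_mul_cancel₀ _ hl₀]
    have e : (a ^ 2 * l₀ - b ^ 2 * l₀) • br ξ 1 = (a ^ 2 * l₀) • br ξ 1 - (b ^ 2 * l₀) • br ξ 1 := by
      ext x
      simp only [LinearMap.smul_apply, LinearMap.sub_apply]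
      exact sub_smul _ _ _
    rw [hl, e]
    exact T_sub hyp.alt (Psq l₀ a P0 v hv) (Psq l₀ b P0 v hv)

end Cfsg.Agent.Lib.Helper99.Spx
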