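import Mathlib
import Cfsg.Agent.Lib.Helper99.SpxBase
import Cfsg.Agent.Lib.Helper59.SpxT0

set_option autoImplicit false
set_option linter.unusedSectionVars false
set_option linter.unusedVariables false

/-! Piece T1 of the S5664 farm. -/

namespace Cfsg.Agent.Lib.Helper99.Spx

open Module
open LinearMap (BilinForm)
open Cfsg.Agent.Lib.Helper83.Ext
open Cfsg.Agent.Lib.Helper94 (IsIsom st st_apply st_isIsom alt_swap exists_move)

variable {F K V : Type*} [Field F] [Field K] [Algebra F K] [AddCommGroup V] [Module F V] [Module K V]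
  [IsScalarTower F K V]
variable {BK : BilinForm K V} {ξ : K →ₗ[F] F} {G : Subgroup (V ≃ₗ[F] V)}

lemma tau_sq (hA : BK.IsAlt) (h2 : (2 : F) = 0) (x : V) :
    (1 + TT BK x (br ξ 1)) * (1 + TT BK x (br ξ 1)) = 1 := by
  have e : (1 + TT BK x (br ξ 1)) * (1 + TT BK x (br ξ 1))
      = 1 + (2 : F) • TT BK x (br ξ 1) + TT BK x (br ξ 1) * TT BK x (br ξ 1) := by
    rw [two_smul]; noncomm_ring
  rw [e, TT_mul_self hA, h2, zero_smul, add_zero, add_zero]

lemma Rel.refl' (hA : BK.IsAlt) (h2 : (2 : F) = 0) (x : V) : Rel BK ξ G x x := by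
  unfold Rel
  rw [tau_sq hA h2]
  exact MS_one

lemma Rel.symm' (hA : BK.IsAlt) (h2 : (2 : F) = 0) {x y : V} (h : Rel BK ξ G x y) :
    Rel BK ξ G y x := by
  unfold Rel at h ⊢
  refine MS_inv h ?_
  calc (1 + TT BK x (br ξ 1)) * (1 + TT BK y (br ξ 1)) *
        ((1 + TT BK y (br ξ 1)) * (1 + TT BK x (br ξ 1)))
      = (1 + TT BK x (br ξ 1)) * ((1 + TT BK y (br ξ 1)) * (1 + TT BK y (br ξ 1))) *
        (1 + TT BK x (br ξ 1)) := by simp only [mul_assoc]
    _ = 1 := by rw [tau_sq hA h2, mul_one, tau_sq hA h2]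

lemma Rel.trans' (hA : BK.IsAlt) (h2 : (2 : F) = 0) {x y z : V} (h : Rel BK ξ G x y)
    (h' : Rel BK ξ G y z) : Rel BK ξ G x z := by
  unfold Rel at h h' ⊢
  have := MS_mul h h'
  have e : (1 + TT BK x (br ξ 1)) * (1 + TT BK y (br ξ 1)) *
        ((1 + TT BK y (br ξ 1)) * (1 + TT BK z (br ξ 1)))
      = (1 + TT BK x (br ξ 1)) * ((1 + TT BK y (br ξ 1)) * (1 + TT BK y (br ξ 1))) *
        (1 + TT BK z (br ξ 1)) := by simp only [mul_assoc]
  rwa [e, tau_sq hA h2, mul_one] at this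

lemma Rel.map (hyp : Hyp BK ξ G) {g : V ≃ₗ[F] V} (hg : g ∈ G) {x y : V} (h : Rel BK ξ G x y) :
    Rel BK ξ G (g x) (g y) := by
  unfold Rel at h ⊢
  have h1 := MS_conj hg h
  have ex := T_conj_br hyp hg x 1
  have ey := T_conj_br hyp hg y 1
  rw [one_smul] at ex ey
  rw [← ex, ← ey]
  convert h1 using 1
  ext z
  simp

lemma Rel.smul (hyp : Hyp BK ξ G) (hF : ∀ l : F, l = 0 ∨ l = 1) (hr : finrank F K = 2) (x : V)
    {c : K} (hc : c ≠ 0) : Rel BK ξ G x (c • x) := by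
  unfold Rel
  obtain ⟨k, hk⟩ := br_add_br hF hr ξ c hc
  have e1 : TT BK (c • x) (br ξ 1) = TT BK x (br ξ c) := by
    have := TT_smul_br BK ξ x c 1 1
    rwa [one_smul, one_smul, mul_one] at this
  have e2 : TT BK x (br ξ 1) * TT BK x (br ξ c) = 0 := TT_mul_self hyp.alt x _ _
  have e : (1 + TT BK x (br ξ 1)) * (1 + TT BK (c • x) (br ξ 1))
      = 1 + TT BK x (LinearMap.mulLeft F k) := by
    rw [e1, ← hk, TT_add]
    calc (1 + TT BK x (br ξ 1)) * (1 + TT BK x (br ξ c))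
        = 1 + (TT BK x (br ξ 1) + TT BK x (br ξ c)) + TT BK x (br ξ 1) * TT BK x (br ξ c) := by
          noncomm_ring
      _ = _ := by rw [e2, add_zero]
  rw [e]
  exact T_mulLeft hyp x k

lemma Rel.kmap (hyp : Hyp BK ξ G) {e : V ≃ₗ[K] V} (he : IsIsom BK e) {x y : V}
    (h : Rel BK ξ G x y) : Rel BK ξ G (e x) (e y) :=
  Rel.map hyp (mem_of_kisom hyp he) h

theorem rel_all [Finite K] [FiniteDimensional K V] (hyp : Hyp BK ξ G) (hF : ∀ l : F, l = 0 ∨ l = 1)
    (hr : finrank F K = 2) (hd : 2 ≤ finrank K V) {g : V ≃ₗ[F] V} (hg : g ∈ G)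
    (hns : ¬ IsSemi K g) (x y : V) (hx : x ≠ 0) (hy : y ≠ 0) : Rel BK ξ G x y := by
  have h2 : (2 : F) = 0 := by
    rcases hF 2 with h | h
    · exact h
    · exfalso
      have : (1 : F) = 0 := by linear_combination h
      exact one_ne_zero this
  have hA := hyp.alt
  have hN := hyp.nd
  -- (d)
  obtain ⟨w, k, hwk⟩ := exists_nonpoint hd hns
  have hk0 : k ≠ 0 := by
    rintro rfl
    exact hwk 0 (by simp)
  have hw0 : w ≠ 0 := by
    rintro rfl
    exact hwk 0 (by simp)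
  set x₀ := g w with hx₀
  set y₀ := g (k • w) with hy₀
  have hR0 : Rel BK ξ G x₀ y₀ := Rel.map hyp hg (Rel.smul hyp hF hr w hk0)
  have hx₀0 : x₀ ≠ 0 := by simpa [hx₀] using hw0
  have hy₀0 : y₀ ≠ 0 := by
    intro h
    exact hwk 0 (by rw [zero_smul]; exact h)
  -- (e)
  obtain ⟨x₁, y₁, hR1, hB1⟩ : ∃ x₁ y₁ : V, Rel BK ξ G x₁ y₁ ∧ BK x₁ y₁ ≠ 0 := by
    by_cases hB : BK x₀ y₀ = 0
    · have hnot : x₀ ∉ Submodule.span K {y₀} := by
        intro hmem
        obtain ⟨c, hc⟩ := Submodule.mem_span_singleton.mp hmem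
        have hc0 : c ≠ 0 := by
          rintro rfl
          rw [zero_smul] at hc
          exact hx₀0 hc.symm
        apply hwk c⁻¹
        rw [← hc, smul_smul, inv_mul_cancel₀ hc0, one_smul]
      obtain ⟨z, hz, hxz⟩ := Cfsg.Agent.Lib.Helper94.exists_perp_ne hA hN _ hnot
      have hyz : BK y₀ z = 0 :=
        (LinearMap.BilinForm.mem_orthogonal_iff.1 hz) y₀ (Submodule.mem_span_singleton_self y₀)
      have hR2 := Rel.kmap hyp (st_isIsom BK hA z 1) hR0
      rw [st_apply, st_apply, hyz, mul_zero, zero_smul, add_zero, one_mul] at hR2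
      refine ⟨x₀, x₀ + BK x₀ z • z, Rel.trans' hA h2 hR0 (Rel.symm' hA h2 hR2), ?_⟩
      rw [map_add, hA x₀, zero_add, map_smul, smul_eq_mul]
      exact mul_ne_zero hxz hxz
    · exact ⟨x₀, y₀, hR0, hB⟩
  -- (f)
  have H : ∀ a b c : V, Rel BK ξ G a b → BK a b ≠ 0 → BK a c ≠ 0 → Rel BK ξ G a c := by
    intro a b c hab hBab hBac
    set c' := (BK a b / BK a c) • c with hc'
    have hBc' : BK a c' = BK a b := by
      rw [hc', map_smul, smul_eq_mul, div_mul_cancel₀ _ hBac]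
    have hnotin : ∀ d : V, BK a d ≠ 0 → d ∉ Submodule.span K {a} := by
      intro d hd hmem
      obtain ⟨r, rfl⟩ := Submodule.mem_span_singleton.mp hmem
      apply hd
      rw [map_smul, hA a, smul_zero]
    obtain ⟨t, -, ht, htU, htb⟩ := exists_move hA hN (⊤ : Subgroup (V ≃ₗ[K] V))
      (Submodule.span K {a}) (fun _ _ _ => trivial) c' b (hnotin c' (hBc' ▸ hBab)) (hnotin b hBab)
      (by
        intro u hu
        obtain ⟨r, rfl⟩ := Submodule.mem_span_singleton.mp hu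
        simp [hBc'])
    have h1 := Rel.kmap hyp ht hab
    rw [htU a (Submodule.mem_span_singleton_self a), htb] at h1
    have h3 : Rel BK ξ G c c' := Rel.smul hyp hF hr c (div_ne_zero hBab hBac)
    exact Rel.trans' hA h2 h1 (Rel.symm' hA h2 h3)
  -- (g)
  have hx₁0 : x₁ ≠ 0 := by
    rintro rfl
    simp at hB1
  have P : ∀ a c : V, a ≠ 0 → BK a c ≠ 0 → Rel BK ξ G a c := by
    intro a c ha hac
    obtain ⟨e, he, rfl⟩ := exists_kmove hA hN hx₁0 ha
    exact H _ (e y₁) c (Rel.kmap hyp he hR1) (by rw [he]; exact hB1) hac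
  have hex : ∀ a : V, a ≠ 0 → ∃ z ∈ (⊤ : Submodule K V), BK a z ≠ 0 := by
    intro a ha
    by_contra hcon
    push Not at hcon
    exact ha (hN.1 a (fun z => hcon z trivial))
  obtain ⟨z, -, hz1, hz2⟩ := Cfsg.Agent.Lib.Helper94.exists_both_ne_zero (⊤ : Submodule K V)
    (BK x) (BK y) (hex x hx) (hex y hy)
  exact Rel.trans' hA h2 (P x z hx hz1) (Rel.symm' hA h2 (P y z hy hz2))

end Cfsg.Agent.Lib.Helper99.Spx
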