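import Mathlib
import Cfsg.Agent.Lib.Helper99.SpxBase

set_option autoImplicit false
set_option linter.unusedSectionVars false
set_option linter.unusedVariables false

/-! Piece T2 of the S5664 farm. -/

namespace Cfsg.Agent.Lib.Helper99.Spx

open Module
open LinearMap (BilinForm)
open Cfsg.Agent.Lib.Helper83.Ext
open Cfsg.Agent.Lib.Helper94 (IsIsom st st_apply st_isIsom alt_swap exists_move)

variable {F K V : Type*} [Field F] [Field K] [Algebra F K] [AddCommGroup V] [Module F V] [Module K V]
  [IsScalarTower F K V]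
variable {BK : BilinForm K V} {ξ : K →ₗ[F] F} {G : Subgroup (V ≃ₗ[F] V)}

lemma two_eq_zero_of_hF (hF : ∀ l : F, l = 0 ∨ l = 1) : (2 : F) = 0 := by
  rcases hF 2 with h | h
  · exact h
  · exfalso
    have : (1 : F) = 0 := by linear_combination h
    exact one_ne_zero this

/-- endomorphisms with image in `I` and killing `I` -/
def QI (I : Submodule K V) (M : Module.End F V) : Prop := (∀ z, M z ∈ I) ∧ ∀ z ∈ I, M z = 0

lemma QI.add {I : Submodule K V} {M N : Module.End F V} (hM : QI I M) (hN : QI I N) :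
    QI I (M + N) :=
  ⟨fun z => I.add_mem (hM.1 z) (hN.1 z), fun z hz => by simp [hM.2 z hz, hN.2 z hz]⟩

lemma QI.mul {I : Submodule K V} {M N : Module.End F V} (hM : QI I M) (hN : QI I N) :
    (1 + M) * (1 + N) = 1 + (M + N) := by
  have : M * N = 0 := by
    ext z
    simp [hM.2 _ (hN.1 z)]
  calc (1 + M) * (1 + N) = 1 + (M + N) + M * N := by noncomm_ring
    _ = 1 + (M + N) := by rw [this, add_zero]

lemma QI_TT {I : Submodule K V} (hI : ∀ x ∈ I, ∀ y ∈ I, BK x y = 0) {x : V} (hx : x ∈ I)
    (ρ : K →ₗ[F] K) : QI I (TT BK x ρ) :=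
  ⟨fun z => I.smul_mem _ hx, fun z hz => by simp [hI z hz x hx]⟩

lemma TT_br_one_apply (x z : V) : TT BK x (br ξ 1) z = ξ (BK z x) • x := by
  simp

lemma seven_sum (a b c : V) (α β γ : F) :
    β • b + γ • c + ((α + β) • (a + b) + (α + γ) • (a + c)) +
      ((β + γ) • (b + c) + (α + β + γ) • (a + b + c)) =
      α • a + (2 : F) • ((α + β + γ) • a + (α + 2 * β + γ) • b + (α + β + 2 * γ) • c) := by
  module

theorem hasSt_of_rel_all [Finite K] [FiniteDimensional K V] (hyp : Hyp BK ξ G)
    (hF : ∀ l : F, l = 0 ∨ l = 1) (hr : finrank F K = 2) (hd : 4 ≤ finrank K V)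
    (h : ∀ x y : V, x ≠ 0 → y ≠ 0 → Rel BK ξ G x y) : HasSt BK ξ G := by
  have h2 : (2 : F) = 0 := two_eq_zero_of_hF hF
  have h2K : (2 : K) = 0 := by
    have := congrArg (algebraMap F K) h2
    rwa [map_ofNat, map_zero] at this
  -- the vectors
  obtain ⟨u, hu⟩ : ∃ u : V, u ≠ 0 := by
    have : 0 < finrank K V := by omega
    exact (Module.finrank_pos_iff_exists_ne_zero (R := K)).mp this
  obtain ⟨ω, hω0, hω1⟩ : ∃ ω : K, ω ≠ 0 ∧ ω ≠ 1 := by
    by_contra hcon
    push Not at hcon
    have : finrank F K ≤ 1 := by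
      apply finrank_le_one (1 : K)
      intro w
      by_cases hw : w = 0
      · exact ⟨0, by simp [hw]⟩
      · exact ⟨1, by simp [hcon w hw]⟩
    omega
  obtain ⟨u', hu'1, hu'2⟩ : ∃ u' : V, BK u u' = 0 ∧ u' ∉ Submodule.span K {u} := by
    by_contra hcon
    push Not at hcon
    have hle : LinearMap.ker (BK u) ≤ Submodule.span K {u} := fun x hx => hcon x hx
    have h1 := Submodule.finrank_mono hle
    rw [finrank_span_singleton hu] at h1
    have h3 := LinearMap.finrank_range_add_finrank_ker (BK u)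
    have h4 : finrank K (LinearMap.range (BK u)) ≤ 1 := by
      have := Submodule.finrank_le (LinearMap.range (BK u))
      rwa [Module.finrank_self] at this
    omega
  set I : Submodule K V := Submodule.span K {u, u'} with hIdef
  have huI : u ∈ I := Submodule.subset_span (by simp)
  have hu'I : u' ∈ I := Submodule.subset_span (by simp)
  have hu'u : BK u' u = 0 := by rw [alt_swap hyp.alt, hu'1, neg_zero]
  have hI : ∀ x ∈ I, ∀ y ∈ I, BK x y = 0 := by
    intro x hx y hy
    obtain ⟨p, q, rfl⟩ := Submodule.mem_span_pair.mp hx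
    obtain ⟨r, s, rfl⟩ := Submodule.mem_span_pair.mp hy
    simp [hyp.alt u, hyp.alt u', hu'1, hu'u]
  set a := u with ha
  set b := ω • u with hb
  set c := u' with hc
  have hbI : b ∈ I := I.smul_mem _ huI
  have hnotspan : ∀ k : K, k • u + c ≠ 0 := by
    intro k hk
    apply hu'2
    have : c = (-k) • u := by
      rw [neg_smul]; exact eq_neg_of_add_eq_zero_right hk
    rw [this]
    exact Submodule.smul_mem _ _ (Submodule.mem_span_singleton_self u)
  have hb0 : b ≠ 0 := smul_ne_zero hω0 hu
  have hc0 : c ≠ 0 := by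
    have := hnotspan 0
    simpa using this
  have hab0 : a + b ≠ 0 := by
    have e : a + b = (1 + ω) • u := by rw [add_smul, one_smul]
    rw [e]
    refine smul_ne_zero ?_ hu
    intro h0
    apply hω1
    linear_combination h0 - h2K
  have hac0 : a + c ≠ 0 := by
    have := hnotspan 1
    simpa using this
  have hbc0 : b + c ≠ 0 := hnotspan ω
  have habc0 : a + b + c ≠ 0 := by
    have := hnotspan (1 + ω)
    rwa [add_smul, one_smul] at this
  have r1 := h b c hb0 hc0
  have r2 := h (a + b) (a + c) hab0 hac0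
  have r3 := h (b + c) (a + b + c) hbc0 habc0
  unfold Rel at r1 r2 r3
  have q : ∀ x ∈ I, QI I (TT BK x (br ξ 1)) := fun x hx => QI_TT hI hx _
  have qb := q b hbI
  have qc := q c hu'I
  have qab := q (a + b) (I.add_mem huI hbI)
  have qac := q (a + c) (I.add_mem huI hu'I)
  have qbc := q (b + c) (I.add_mem hbI hu'I)
  have qabc := q (a + b + c) (I.add_mem (I.add_mem huI hbI) hu'I)
  rw [qb.mul qc] at r1
  rw [qab.mul qac] at r2
  rw [qbc.mul qabc] at r3
  have r12 := MS_mul r1 r2
  rw [(qb.add qc).mul (qab.add qac)] at r12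
  have r123 := MS_mul r12 r3
  rw [((qb.add qc).add (qab.add qac)).mul (qbc.add qabc)] at r123
  refine ⟨a, 1, hu, one_ne_zero, ?_⟩
  rw [one_smul]
  convert r123 using 2
  ext z
  simp only [LinearMap.add_apply, TT_br_one_apply, map_add]
  set α := ξ (BK z a)
  set β := ξ (BK z b)
  set γ := ξ (BK z c)
  rw [seven_sum a b c α β γ, h2, zero_smul, add_zero]

end Cfsg.Agent.Lib.Helper99.Spx
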