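import Mathlib
import Cfsg.Agent.Lib.Helper99.SpxBase

set_option autoImplicit false
set_option linter.unusedSectionVars false
set_option linter.unusedVariables false

/-! Pieces W and Q of the S5664 farm. -/

namespace Cfsg.Agent.Lib.Helper99.Spx

open Module
open LinearMap (BilinForm)
open Cfsg.Agent.Lib.Helper83.Ext
open Cfsg.Agent.Lib.Helper94 (IsIsom st st_apply st_isIsom alt_swap exists_move)

variable {F K V : Type*} [Field F] [Field K] [Algebra F K] [AddCommGroup V] [Module F V] [Module K V]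
  [IsScalarTower F K V]
variable {BK : BilinForm K V} {ξ : K →ₗ[F] F} {G : Subgroup (V ≃ₗ[F] V)}

theorem W_mem (hyp : Hyp BK ξ G) {v : V} {n₀ : K} (h : Out BK ξ G v n₀) (l : F) (y : K) :
    1 + TT BK v (Wr ξ n₀ l y) ∈ MS G := by
  obtain ⟨hv, hn0, hξn, A, hAA, hAl, hAv⟩ := h
  obtain ⟨g, hg, hgz⟩ := hAl l
  have hgx : ∀ x : V, g x = x + l • A x := by
    intro x
    have := congrArg (fun φ : Module.End F V => φ x) hgz
    simpa using this
  have hAAx : ∀ x : V, A (A x) = 0 := by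
    intro x
    have := congrArg (fun φ : Module.End F V => φ x) hAA
    simpa using this
  have hgs : ∀ x : V, g.symm x = x - l • A x := by
    intro x
    rw [LinearEquiv.symm_apply_eq, hgx]
    simp [hAAx]
  set k : K := y / n₀ with hk
  have hkn : k * n₀ = y := div_mul_cancel₀ _ hn0
  have hb : ∀ x : V, BK (g.symm x) v = BK x v + (l * ξ (BK x v)) • n₀ := by
    intro x
    apply eq_of_xi hyp.xi
    intro t
    have h1 := hyp.iso g hg (g.symm x) (t • v)
    rw [LinearEquiv.apply_symm_apply, hgx, hAv] at h1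
    simp only [fd_apply, map_add, map_smul, smul_eq_mul] at h1
    rw [← h1]
    simp only [mul_add, map_add, mul_smul_comm, map_smul, smul_eq_mul]
    rw [mul_comm n₀ t]
    ring
  have hconj := MS_conj hg (T_mulLeft hyp v k)
  have e : (g : V →ₗ[F] V) ∘ₗ (1 + TT BK v (LinearMap.mulLeft F k)) ∘ₗ (g.symm : V →ₗ[F] V)
      = 1 + TT BK v (LinearMap.mulLeft F k + Wr ξ n₀ l y) := by
    ext x
    simp only [LinearMap.comp_apply, LinearEquiv.coe_coe, LinearMap.add_apply, Module.End.one_apply,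
      TT_apply, LinearMap.mulLeft_apply, map_add, LinearEquiv.apply_symm_apply]
    congr 1
    rw [hgx, hAv, hb, Wr_apply]
    have h2 : n₀ * (k * (BK x v + (l * ξ (BK x v)) • n₀))
        = y * BK x v + (l * ξ (BK x v)) • (n₀ * y) := by
      rw [← hkn]
      simp only [mul_add, mul_smul_comm]
      ring_nf
    rw [h2]
    simp only [map_add, map_smul, smul_eq_mul]
    have h3 : k * (BK x v + (l * ξ (BK x v)) • n₀) = k * BK x v + (l * ξ (BK x v)) • y := by
      rw [mul_add, mul_smul_comm, hkn]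
    rw [h3]
    simp only [add_smul, smul_assoc, one_smul, smul_add, smul_smul]
    have h4 : l * (l * ξ (BK x v) * ξ (n₀ * y)) = l ^ 2 * ξ (n₀ * y) * ξ (BK x v) := by ring
    rw [h4]
    abel
  rw [e] at hconj
  have := T_sub hyp.alt hconj (T_mulLeft hyp v k)
  rwa [add_sub_cancel_left] at this

theorem hasSt_of_out_of_three (hyp : Hyp BK ξ G) {v : V} {n₀ : K} (h : Out BK ξ G v n₀)
    (hq : ∃ l : F, l ≠ 0 ∧ l ≠ 1) : HasSt BK ξ G := by
  obtain ⟨l, hl0, hl1⟩ := hq
  obtain ⟨y, hy⟩ := exists_xi_ne hyp.xi h.2.1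
  rw [mul_comm] at hy
  refine ⟨v, (l - 1) * ξ (n₀ * y), h.1, mul_ne_zero (sub_ne_zero.mpr hl1) hy, ?_⟩
  have e : ((l - 1) * ξ (n₀ * y)) • br ξ 1 = Wr ξ n₀ l (l⁻¹ • y) - Wr ξ n₀ 1 y := by
    ext b
    simp only [LinearMap.smul_apply, LinearMap.sub_apply, br_apply, Wr_apply, one_mul, smul_smul,
      smul_mul_assoc, mul_smul_comm, map_smul, smul_eq_mul, one_pow]
    have h1 : l * ξ b * l⁻¹ = ξ b := by field_simp
    rw [h1, add_sub_add_left_eq_sub, ← sub_smul]
    congr 1
    field_simp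
    ring
  rw [e]
  exact T_sub hyp.alt (W_mem hyp h l (l⁻¹ • y)) (W_mem hyp h 1 y)

end Cfsg.Agent.Lib.Helper99.Spx
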